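import Cfsg.Agent.Lib.Fus.PPrime
import Cfsg.Agent.Lib.Asch.Cent
import Cfsg.Agent.Lib.Asch.PNormal
import Cfsg.Agent.Lib.Fus2.Constr

/-!
Craven's theorem: the `p'`-residual of a weakly normal subsystem is normal.
-/

set_option autoImplicit false

namespace Cfsg.Agent.Fus

open Cfsg Cfsg.FusionSystem Cfsg.Agent.Fus2
open Cfsg.Agent.Asch (TCen PPr WNor)

variable {Ω : Type*} [Group Ω] {S T : Subgroup Ω} {F : FusionSystem S} {E : FusionSystem T}
  {P Q V N : Subgroup Ω} {p : ℕ} {f g : Ω → Ω}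

theorem sup_cent_le (hP : P ≤ T) :
    P ⊔ centralizerIn S T ≤ P ⊔ centralizerIn S P := sup_le_sup_left (centralizerIn_anti hP) P

theorem mem_of_mem_sup_cent (hT : T ≤ S) (hP : TCen F T P) {x : Ω}
    (hx : x ∈ P ⊔ centralizerIn S T) (hxT : x ∈ T) : x ∈ P :=
  Asch.TCen.inf_le (hP.self hT) hP.le (sup_cent_le hP.le) ⟨hx, hxT⟩

/-- A map on `P C_S(T)` which is trivial modulo `T` maps onto `f(P) C_S(T)`. -/
theorem mem_img_sup_of_triv (hT : F.StronglyClosed T) (hP : TCen F T P)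
    (hg : M F (P ⊔ centralizerIn S T) g) (ht : ∀ x ∈ P ⊔ centralizerIn S T, x⁻¹ * g x ∈ T)
    {c : Ω} (hc : c ∈ centralizerIn S T) : c⁻¹ * g c ∈ img P g := by
  have hc' := Subgroup.mem_sup_right (S := P) hc
  refine hP.cen g (hg.mono le_sup_left) ⟨ht c hc', Subgroup.mul_mem _ (Subgroup.inv_mem _ ?_)
    (hg.homOn.mem_centralizer le_sup_left hc' (centralizerIn_anti hP.le hc).2)⟩
  exact fun y hy => hc.2 y ((hP.img hT (hg.mono le_sup_left)).le hy)

theorem img_sup_of_triv (hT : F.StronglyClosed T) (hP : TCen F T P)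
    (hg : M F (P ⊔ centralizerIn S T) g) (ht : ∀ x ∈ P ⊔ centralizerIn S T, x⁻¹ * g x ∈ T) :
    img (P ⊔ centralizerIn S T) g = img P g ⊔ centralizerIn S T := by
  refine le_antisymm (img_le_iff.2 (hg.homOn.mem_of_sup
    (fun x hx => Subgroup.mem_sup_left (mem_img_of_mem g hx)) fun c hc => ?_))
    (sup_le (img_mono g le_sup_left) fun c hc => ?_)
  · simpa using Subgroup.mul_mem _ (Subgroup.mem_sup_right hc)
      (Subgroup.mem_sup_left (mem_img_sup_of_triv hT hP hg ht hc))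
  · simpa using Subgroup.mul_mem _ (mem_img_of_mem g (Subgroup.mem_sup_right hc))
      (Subgroup.inv_mem _ (img_mono g le_sup_left (mem_img_sup_of_triv hT hP hg ht hc)))

/-- The maps of `E` which, on centric subgroups, extend to `P C_S(T)` trivially modulo `T`. -/
def cravenSys (h : WNor p E F) [Finite S] : FusionSystem T :=
  ofFn T (fun P f => M E P f ∧ (E.IsCentric P → ∃ g, M F (P ⊔ centralizerIn S T) g ∧
      (∀ x ∈ P, g x = f x) ∧ ∀ x ∈ P ⊔ centralizerIn S T, x⁻¹ * g x ∈ T))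
    (fun h e => ⟨h.1.congr e, fun hc => (h.2 hc).imp fun _ hg =>
      ⟨hg.1, fun x hx => (hg.2.1 x hx).trans (e x hx), hg.2.2⟩⟩)
    (fun h => h.1.le) (fun h _ hx => h.1.mem hx) (fun _ h => h.1.inj)
    (fun {P t} hP ht => ⟨M_conj E hP ht, fun _ => ⟨_, M_conj F
      (sup_le (hP.trans h.le) (centralizerIn_le T)) (h.le ht), fun _ _ => rfl, fun x hx => by
        have := T.mul_mem (sc_conj_mem h.sc (S.inv_mem
          (sup_le (hP.trans h.le) (centralizerIn_le T) hx)) ht) (T.inv_mem ht)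
        simpa [mul_assoc] using this⟩⟩)
    (fun {P Q f f'} _ _ hf hf' hm => ⟨hf.1.comp hf'.1 hm, fun hc => by
      obtain ⟨g, hg, e, ht⟩ := hf.2 hc
      have hi : img P g ≤ Q := img_le_iff.2 fun x hx => e x hx ▸ hm x hx
      obtain ⟨g', hg', e', ht'⟩ := hf'.2
        (isCentric_of_le (isCentric_img hc hf.1) (img_le_iff.2 hm) hf'.1.le)
      have hm' : ∀ x ∈ P ⊔ centralizerIn S T, g x ∈ Q ⊔ centralizerIn S T := fun x hx =>
        sup_le_sup_right hi _ (img_sup_of_triv h.sc (h.tCen hc) hg ht ▸ mem_img_of_mem g hx)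
      refine ⟨_, hg.comp hg' hm', fun x hx => ?_, fun x hx => ?_⟩
      · show g' (g x) = f' (f x)
        rw [e x hx, e' _ (hm x hx)]
      · simpa [mul_assoc] using T.mul_mem (ht x hx) (ht' _ (hm' x hx))⟩)
    (fun {P f} _ hf => by
      obtain ⟨f', hf', l⟩ := hf.1.inv
      refine ⟨f', ⟨hf', fun hc => ?_⟩, l⟩
      have hc' : E.IsCentric P := isCentric_of_isConj hc (isConj_symm hf.1.isConj)
      obtain ⟨g, hg, e, ht⟩ := hf.2 hc'
      obtain ⟨g', hg', -, l', -, r'⟩ := hg.inv' (img_sup_of_triv h.sc (h.tCen hc') hg ht)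
      rw [img_congr e] at hg' r'
      refine ⟨g', hg', fun y hy => ?_, fun y hy => ?_⟩
      · obtain ⟨x, hx, rfl⟩ := hf.1.mem_img.1 hy
        rw [l x hx, ← e x hx, l' x (Subgroup.mem_sup_left hx)]
      · rw [← img_congr e, ← img_sup_of_triv h.sc (h.tCen hc') hg ht] at hy
        obtain ⟨x, hx, rfl⟩ := hg.mem_img.1 hy
        rw [l' x hx]
        simpa using T.inv_mem (ht x hx))

theorem M_cravenSys_iff [Finite S] {h : WNor p E F} : M (cravenSys h) P f ↔
    M E P f ∧ (E.IsCentric P → ∃ g, M F (P ⊔ centralizerIn S T) g ∧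
      (∀ x ∈ P, g x = f x) ∧ ∀ x ∈ P ⊔ centralizerIn S T, x⁻¹ * g x ∈ T) := by
  rw [M_iff_of_fn (R := fun f => M E P f ∧ (E.IsCentric P → ∃ g, M F (P ⊔ centralizerIn S T) g ∧
      (∀ x ∈ P, g x = f x) ∧ ∀ x ∈ P ⊔ centralizerIn S T, x⁻¹ * g x ∈ T)) (fun _ => Iff.rfl)
    fun f g h e => ⟨h.1.congr e, fun hc => (h.2 hc).imp fun _ hg =>
      ⟨hg.1, fun x hx => (hg.2.1 x hx).trans (e x hx), hg.2.2⟩⟩]
  exact ⟨fun h => h.2, fun h => ⟨h.1.homOn, h⟩⟩

variable [Finite S] [Fact p.Prime] (hS : IsPGroup p S)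
include hS

/-- An automorphism normalizing `Aut_N(V)` modulo `O_p(Aut_F(V))` extends to `VN` up to
conjugation. -/
theorem exists_ext_of_comm_mem_autCore (hF : F.IsSaturated p) (hV : V ≤ S)
    (hN : N ≤ normalizerIn S V) {γ : MulAut V} (hγ : γ ∈ F.autGroup V)
    (h : ∀ t (ht : t ∈ N), γ * conjAut V t (hN ht).2 * γ⁻¹ * (conjAut V t (hN ht).2)⁻¹ ∈
      autCore F p V) :
    ∃ χ k, M F (V ⊔ N) χ ∧ M F (V ⊔ N) k ∧ ∀ x ∈ V, k x = χ (afn γ x) := by
  obtain ⟨χ, hχ, hn⟩ := sat_exists_normalizer_map hS hF hV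
  have hVN := le_normalizerIn hV
  have hχV := hχ.mono hVN
  have hf := (M_afn hV hγ).comp hχV fun x hx => afn_mem γ hx
  have hi : img V (fun x => χ (afn γ x)) = img V χ := by
    rw [← img_comp (homOn_afn γ) (by rw [img_afn]; exact hχV.homOn), img_afn]
  obtain ⟨k, hk, e⟩ := receptive_ext (sat_receptive hS hF hn) hf hi hN fun t ht => by
    obtain ⟨s, hs, es⟩ := Fus2.mem_autInducedBy_iff.1 (autCore_le_autInducedBy
      (sat_automized hS hF hn) ((hχV.isIso rfl).congr_mem_autCore (h t ht)))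
    refine ⟨s * χ t, S.mul_mem hs (hχ.mem (hN ht)), fun x hx => ?_⟩
    have h1 := afn_mem (conjAut V t (hN ht).2) (afn_mem γ hx)
    have h2 := es _ (mem_img_of_mem χ h1)
    rw [afn_congr _ (hχV.equiv_apply rfl) _ h1, afn_mul, afn_mul, afn_mul, afn_inv_afn,
      afn_inv_afn, afn_conjAut _ hx, afn_conjAut _ (afn_mem γ hx),
      hχ.map_conj (hN ht) (hVN (afn_mem γ hx))] at h2
    show χ _ = _
    rw [h2]
    group
  exact ⟨χ, k, hχ.mono (sup_le hVN hN), hk, e⟩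

/-- A `p'`-automorphism of `P C_S(T)` fixing `P` extends to `T C_S(T)` fixing `T`. -/
theorem exists_fix_ext (hF : F.IsSaturated p) (hT : F.StronglyClosed T) :
    ∀ P, P ≤ T → TCen F T P → ∀ g, M F (P ⊔ centralizerIn S T) g →
      PPr p (P ⊔ centralizerIn S T) g → (∀ x ∈ P, g x = x) →
      ∃ k, M F (T ⊔ centralizerIn S T) k ∧ (∀ x ∈ T, k x = x) ∧
        ∀ x ∈ P ⊔ centralizerIn S T, k x = g x := by
  have := finite_of_le hT.1
  refine induction_card_down fun P hPT ih hP g hg hp hfix => ?_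
  rcases hPT.eq_or_lt with rfl | hlt
  · exact ⟨g, hg, hfix, fun _ _ => rfl⟩
  have hPN : P < normalizerIn T P := lt_inf_normalizer (isPGroup_of_le hS hT.1) hlt
  set N := normalizerIn T P
  set V := P ⊔ centralizerIn S T with hVdef
  have hNT : N ≤ T := normalizerIn_le P
  have := finite_of_le hg.le
  have hN : N ≤ normalizerIn S V := fun t ht => ⟨hT.1 ht.1, mem_normalizer_of_conj_mem
    ((homOn_conj V t).mem_of_sup (fun x hx => Subgroup.mem_sup_left
      (conj_mem_of_mem_normalizer ht.2 hx)) fun c hc => Subgroup.mem_sup_right (by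
        rw [hc.2 t ht.1, mul_inv_cancel_right]; exact hc))⟩
  have hinv : ∀ β ∈ F.autGroup V, ∀ x ∈ P, afn β x ∈ P := fun β hβ x hx =>
    mem_of_mem_sup_cent hT.1 hP (afn_mem β (Subgroup.mem_sup_left hx))
      (afn_mem_of_sc hg.le hβ hT (Subgroup.mem_sup_left hx) (hPT hx))
  obtain ⟨γ, hγ, e⟩ := hg.exists_aut' hp.maps
  have hγfix : ∀ x ∈ P, afn γ x = x := fun x hx => by
    rw [e x (Subgroup.mem_sup_left hx), hfix x hx]
  obtain ⟨χ, k, hχ, hk, ek⟩ := exists_ext_of_comm_mem_autCore hS hF hg.le hN hγ fun t ht => by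
    have hc := conjAut_mem_autGroup (F := F) hg.le (hN ht).1 (hN ht).2
    have hct : conjAut V t (hN ht).2 ∈ trivMod V P := fun x hx => by
      refine mem_of_mem_sup_cent hT.1 hP (V.mul_mem (V.inv_mem hx) (afn_mem _ hx)) ?_
      rw [afn_conjAut _ hx]
      have := T.mul_mem (sc_conj_mem hT (S.inv_mem (hg.le hx)) ht.1) (T.inv_mem ht.1)
      simpa [mul_assoc] using this
    refine mem_autCore_of_two hS hg.le le_sup_left hinv (Subgroup.mul_mem _ (Subgroup.mul_mem _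
      (Subgroup.mul_mem _ hγ hc) (Subgroup.inv_mem _ hγ)) (Subgroup.inv_mem _ hc))
      (fun y hy => ?_) (Subgroup.mul_mem _ (Asch.conj_mem_trivMod hct fun y _ hy => hinv γ hγ y hy)
        (Subgroup.inv_mem _ hct))
    have h1 := hinv _ (Subgroup.inv_mem _ hc) y hy
    have h2 : afn γ⁻¹ (afn (conjAut V t (hN ht).2)⁻¹ y) = afn (conjAut V t (hN ht).2)⁻¹ y := by
      conv_lhs => rw [← hγfix _ h1, afn_inv_afn]
    rw [afn_mul, afn_mul, afn_mul, h2, afn_afn_inv, hγfix y hy]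
  have hPV : P ≤ V ⊔ N := le_sup_left.trans le_sup_left
  have h1 : ∀ t ∈ N, (χ t)⁻¹ * k t ∈ img P χ := fun t ht => by
    have ht' := Subgroup.mem_sup_right (S := V) ht
    refine hP.cen χ (hχ.mono hPV) (mem_centralizerIn.2 ⟨T.mul_mem
      (T.inv_mem (hχ.mem_of_sc hT ht' ht.1)) (hk.mem_of_sc hT ht' ht.1), fun y hy => ?_⟩)
    obtain ⟨x, hx, rfl⟩ := (hχ.mono hPV).mem_img.1 hy
    have hx' := conj_mem_of_mem_normalizer ht.2 hx
    have h2 := hk.map_conj ht' (hPV hx)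
    rw [ek _ (Subgroup.mem_sup_left hx'), hγfix _ hx', ek _ (Subgroup.mem_sup_left hx),
      hγfix _ hx, hχ.map_conj ht' (hPV hx)] at h2
    calc χ x * ((χ t)⁻¹ * k t) = (χ t)⁻¹ * (χ t * χ x * (χ t)⁻¹) * k t := by group
      _ = (χ t)⁻¹ * k t * χ x := by rw [h2]; group
  obtain ⟨χ', hχ', l⟩ := hχ.inv
  have hm : ∀ x ∈ V ⊔ N, k x ∈ img (V ⊔ N) χ := hk.homOn.mem_of_sup
    (fun x hx => ek x hx ▸ mem_img_of_mem χ (Subgroup.mem_sup_left (afn_mem γ hx))) fun t ht => by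
      simpa using Subgroup.mul_mem _ (mem_img_of_mem χ (Subgroup.mem_sup_right ht))
        (img_mono χ hPV (h1 t ht))
  have hg' := hk.comp hχ' hm
  have e1 : ∀ x ∈ V, χ' (k x) = g x := fun x hx => by
    rw [ek x hx, l _ (Subgroup.mem_sup_left (afn_mem γ hx)), e x hx]
  have e2 : ∀ t ∈ N, t⁻¹ * χ' (k t) ∈ P := fun t ht => by
    obtain ⟨u, hu, eu⟩ := (hχ.mono hPV).mem_img.1 (h1 t ht)
    have ht' := Subgroup.mem_sup_right (S := V) ht
    rw [eq_inv_mul_iff_mul_eq, ← hχ.map_mul ht' (hPV hu)] at eu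
    rw [← eu, l _ (Subgroup.mul_mem _ ht' (hPV hu)), inv_mul_cancel_left]
    exact hu
  have hmN : ∀ t ∈ N, χ' (k t) ∈ N := Asch.maps_of_triv hPN.le e2
  have hm' : ∀ x ∈ V ⊔ N, χ' (k x) ∈ V ⊔ N := hg'.homOn.mem_of_sup
    (fun x hx => Subgroup.mem_sup_left (e1 x hx ▸ hp.maps x hx))
    fun t ht => Subgroup.mem_sup_right (hmN t ht)
  obtain ⟨n, hn, en⟩ := (hp.congr fun x hx => (e1 x hx).symm).exists_pow le_sup_left hg' hm'
  have hg'' := Asch.M.iterate hg' hm' n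
  have hle : N ⊔ centralizerIn S T ≤ V ⊔ N := sup_le le_sup_right (le_sup_right.trans le_sup_left)
  have hle' : V ⊔ N ≤ N ⊔ centralizerIn S T :=
    sup_le (sup_le_sup_right hPN.le _) le_sup_left
  obtain ⟨k', hk', h2, h3⟩ := ih N hNT (card_lt_of_lt' hNT hPN) (hP.of_le hPN.le hNT) _
    (hg''.mono hle) (hn.mono hle fun x hx => hle' (hn.maps x (hle hx)))
    ((hn.mono le_sup_right (Asch.iterate_maps hmN n)).fix hS (hg''.mono le_sup_right) hPN.le
      (Asch.iterate_triv hmN e2 n) fun y hy => by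
        rw [en y (Subgroup.mem_sup_left hy), e1 y (Subgroup.mem_sup_left hy), hfix y hy])
  exact ⟨k', hk', h2, fun x hx => by
    rw [h3 x (hle' (Subgroup.mem_sup_left hx)), en x hx, e1 x hx]⟩

theorem mem_cravenSys_of_pow (h : WNor p E F) (hP : E.IsCentric P) {α : MulAut P}
    (hα : α ∈ E.autGroup P) {n : ℕ} (hn : α ^ p ^ n = 1) : α ∈ (cravenSys h).autGroup P := by
  have := finite_of_le h.le
  have hT := isPGroup_of_le hS h.le
  refine (Fus2.mem_autGroup_iff hP.1).2 (M_cravenSys_iff.2 ⟨M_afn hP.1 hα, fun _ => ?_⟩)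
  have hPS := hP.1.trans h.le
  obtain ⟨χ, hχ, hn'⟩ := sat_exists_normalizer_map hS h.satF hPS
  have hPN := le_normalizerIn hPS
  have hχP := hχ.mono hPN
  have hc := (h.tCen hP).img h.sc hχP
  set P' := img P χ
  have hP'E := isFullyNormalized_sub_of_sc hS h.satF h.sc h.isSubsystemOf hc.le hn'
  -- the transported automorphism
  have hα' : MulAut.congr (hχP.equiv rfl) α ∈ E.autGroup P' :=
    (h.strong hP.1 hχP (M_afn hP.1 hα) le_rfl (fun x hx => afn_mem α hx)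
      fun x hx => afn_congr _ (hχP.equiv_apply rfl) α hx).mem_autGroup fun _ _ => rfl
  obtain ⟨β, hβ, h1⟩ := (sat_sylow hT h.satE hP'E).exists_conj_mem_of_pow hα' (k := n)
    (by rw [← map_pow, hn, map_one])
  obtain ⟨t, ht, et⟩ := Fus2.mem_autInducedBy_iff.1 h1
  have htN := mem_normalizer_of_afn et
  have hβF := h.sub (M_afn hc.le hβ)
  obtain ⟨b, hb, eb⟩ := sat_ext_centralizer hS h.satF hβF
    (by rw [img_afn]; exact sat_centralized hS h.satF hn')
  set W := P' ⊔ centralizerIn S P'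
  obtain ⟨β', hβ', eβ'⟩ := hb.exists_aut' (Asch.M.maps_sup_centralizerIn hb
    fun x hx => eb x hx ▸ afn_mem β hx)
  have htW := Asch.mem_normalizer_sup_centralizerIn hn'.1 (h.le ht) htN
  have hWP : ∀ x ∈ W, x ∈ T → x ∈ P' := fun x hx hxT =>
    Asch.TCen.inf_le (hc.self h.le) hc.le le_rfl ⟨hx, hxT⟩
  have hinv : ∀ δ ∈ F.autGroup W, ∀ x ∈ W, x ∈ P' → afn δ x ∈ P' := fun δ hδ x hx hx' =>
    hWP _ (afn_mem δ hx) (afn_mem_of_sc hb.le hδ h.sc hx (hc.le hx'))
  have hct : conjAut W t htW ∈ trivMod W P' := fun x hx => by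
    refine hWP _ (W.mul_mem (W.inv_mem hx) (afn_mem _ hx)) ?_
    rw [afn_conjAut _ hx]
    have := T.mul_mem (sc_conj_mem h.sc (S.inv_mem (hb.le hx)) ht) (T.inv_mem ht)
    simpa [mul_assoc] using this
  have hδ : β'⁻¹ * conjAut W t htW * β'⁻¹⁻¹ ∈ F.autGroup W := Subgroup.mul_mem _
    (Subgroup.mul_mem _ (Subgroup.inv_mem _ hβ') (conjAut_mem_autGroup hb.le (h.le ht) htW))
    (Subgroup.inv_mem _ (Subgroup.inv_mem _ hβ'))
  have hδt := Asch.conj_mem_trivMod hct (hinv _ (Subgroup.inv_mem _ hβ'))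
  set δ := β'⁻¹ * conjAut W t htW * β'⁻¹⁻¹ with hδdef
  have eδ : ∀ x ∈ P, afn δ (χ x) = χ (afn α x) := fun x hx => by
    have hx' : χ x ∈ P' := mem_img_of_mem χ hx
    have hy' : χ (afn α x) ∈ P' := mem_img_of_mem χ (afn_mem α hx)
    have h2 := et _ (afn_mem β hx')
    rw [afn_mul, afn_mul, afn_inv_afn, afn_congr _ (hχP.equiv_apply rfl) α hx, ← eb _ hy',
      ← eβ' _ (Subgroup.mem_sup_left hy'), ← eb _ hx', ← eβ' _ (Subgroup.mem_sup_left hx')] at h2
    rw [hδdef, afn_mul, afn_mul, inv_inv, afn_conjAut _ (afn_mem _ (Subgroup.mem_sup_left hx')),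
      ← h2, afn_inv_afn]
  have hV : P ⊔ centralizerIn S T ≤ normalizerIn S P :=
    (sup_cent_le hP.1).trans (Asch.sup_centralizerIn_le_normalizerIn hPS)
  have hχV := hχ.mono hV
  have hm : ∀ x ∈ P ⊔ centralizerIn S T, χ x ∈ W := hχV.homOn.mem_of_sup
    (fun x hx => Subgroup.mem_sup_left (mem_img_of_mem χ hx)) fun c hc' => Subgroup.mem_sup_right
      (hχV.mem_centralizerIn le_sup_left (Subgroup.mem_sup_right hc')
        (centralizerIn_anti hP.1 hc').2)
  obtain ⟨χ', hχ', l⟩ := hχV.inv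
  have key : ∀ x ∈ P ⊔ centralizerIn S T, ∃ u ∈ P, afn δ (χ x) = χ (x * u) := fun x hx => by
    obtain ⟨u, hu, eu⟩ := hχP.mem_img.1 (hδt _ (hm x hx))
    exact ⟨u, hu, by rw [hχV.map_mul hx (Subgroup.mem_sup_left hu), eu, mul_inv_cancel_left]⟩
  refine ⟨_, (hχV.comp (M_afn hb.le hδ) hm).comp hχ' fun x hx => ?_, fun x hx => ?_,
    fun x hx => ?_⟩
  · obtain ⟨u, hu, eu⟩ := key x hx
    exact eu ▸ mem_img_of_mem χ (Subgroup.mul_mem _ hx (Subgroup.mem_sup_left hu))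
  · show χ' (afn δ (χ x)) = _
    rw [eδ x hx, l _ (Subgroup.mem_sup_left (afn_mem α hx))]
  · obtain ⟨u, hu, eu⟩ := key x hx
    show x⁻¹ * χ' (afn δ (χ x)) ∈ T
    rw [eu, l _ (Subgroup.mul_mem _ hx (Subgroup.mem_sup_left hu)), inv_mul_cancel_left]
    exact hP.1 hu

theorem M_cravenSys_top_of_coprime (h : WNor p E F) (hP : E.IsCentric P) {α : MulAut T}
    (hα : α ∈ E.autGroup T) (hc : (orderOf α).Coprime p) (hf : M (cravenSys h) P (afn α)) :
    M (cravenSys h) T (afn α) := by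
  refine M_cravenSys_iff.2 ⟨M_afn le_rfl hα, fun _ => ?_⟩
  obtain ⟨g, hg, e, ht⟩ := (M_cravenSys_iff.1 hf).2 hP
  set C := centralizerIn S T
  obtain ⟨γ, hγ, hγc, eγ⟩ := Asch.exists_coprime_ext_centralizer hS h.satF h.sc
    (autGroup_mono h.isSubsystemOf T hα) hc
  have hX := Asch.sup_centralizerIn_le h.le
  have hPX : P ⊔ C ≤ T ⊔ C := sup_le_sup_right hP.1 C
  have hγT : ∀ β ∈ F.autGroup (T ⊔ C), ∀ x ∈ T, afn β x ∈ T := fun β hβ x hx =>
    afn_mem_of_sc hX hβ h.sc (Subgroup.mem_sup_left hx) hx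
  have hγC : ∀ β ∈ F.autGroup (T ⊔ C), ∀ x ∈ C, afn β x ∈ C := fun β hβ x hx =>
    Asch.M.mem_centralizerIn_self (M_afn hX hβ) le_sup_left (hγT β hβ) (Subgroup.mem_sup_right hx)
      hx.2
  have hγi := Subgroup.inv_mem _ hγ
  have hgX : ∀ x ∈ P ⊔ C, g x ∈ T ⊔ C := fun x hx => by
    simpa using Subgroup.mul_mem _ (hPX hx) (Subgroup.mem_sup_left (ht x hx))
  have hd := hg.comp (M_afn hX hγi) hgX
  have hdfix : ∀ x ∈ P, afn γ⁻¹ (g x) = x := fun x hx => by
    rw [e x hx, ← eγ x (hP.1 hx), afn_inv_afn]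
  obtain ⟨δ, hδ, eδ⟩ := hd.exists_aut' (hd.homOn.mem_of_sup
    (fun x hx => (hdfix x hx).symm ▸ Subgroup.mem_sup_left hx) fun c hc' => by
      obtain ⟨u, hu, eu⟩ := (hg.mono le_sup_left).mem_img.1
        (mem_img_sup_of_triv h.sc (h.tCen hP) hg ht hc')
      rw [eq_inv_mul_iff_mul_eq] at eu
      show afn γ⁻¹ (g c) ∈ _
      rw [← eu, (homOn_afn _).map_mul (Subgroup.mem_sup_right hc')
        (hgX u (Subgroup.mem_sup_left hu)), hdfix u hu]
      exact Subgroup.mul_mem _ (Subgroup.mem_sup_right (hγC _ hγi c hc'))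
        (Subgroup.mem_sup_left hu))
  have := finite_of_le hg.le
  have := finite_mulAut (P ⊔ C)
  obtain ⟨n, hn, hnc⟩ := exists_pow_pPrimeElement (p := p) (isOfFinOrder_of_finite δ) hγc
  have key : ∀ m : ℕ, ∀ x ∈ P ⊔ C, (afn (γ⁻¹ ^ m) x)⁻¹ * afn (δ ^ m) x ∈ T := by
    intro m
    induction m with
    | zero => intro x _; simp
    | succ m ih =>
      intro x hx
      have h1 := ih _ (afn_mem δ hx)
      have h2 := hγT _ (Subgroup.pow_mem _ hγi m) _ (hγT _ hγi _ (ht x hx))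
      have hx' := hPX hx
      rw [(homOn_afn _).map_mul (Subgroup.inv_mem _ hx') (hgX x hx), (homOn_afn _).map_inv hx',
        ← eδ x hx, (homOn_afn _).map_mul (Subgroup.inv_mem _ (afn_mem _ hx'))
          (hPX (afn_mem δ hx)), (homOn_afn _).map_inv (afn_mem _ hx')] at h2
      rw [pow_succ, pow_succ, afn_mul, afn_mul]
      simpa [mul_assoc] using T.mul_mem h2 h1
  have hγn : γ⁻¹ ^ n = γ⁻¹ := pow_eq_self_of_modEq (by rw [inv_pow, pow_orderOf_eq_one, inv_one]) hn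
  obtain ⟨k, hk, h1, h2⟩ := exists_fix_ext hS h.satF h.sc P hP.1 (h.tCen hP) _
    (M_afn hg.le (Subgroup.pow_mem _ hδ n)) (Asch.ppr_afn hnc) fun x hx => by
      rw [Asch.afn_pow_eq_iterate, Asch.iterate_fix]
      rw [eδ x (Subgroup.mem_sup_left hx)]
      exact hdfix x hx
  have hkX : ∀ x ∈ T ⊔ C, k x ∈ T ⊔ C := Asch.M.maps_sup_centralizerIn hk
    fun x hx => (h1 x hx).symm ▸ hx
  have hb := hk.comp (M_afn hX hγ) hkX
  refine ⟨_, hb, fun x hx => ?_, Asch.triv_sup hb.homOn (hX.trans (sc_le_normalizer h.sc))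
    (fun x hx => ?_) fun c hc' => ?_⟩
  · show afn γ (k x) = _
    rw [h1 x hx, eγ x hx]
  · show x⁻¹ * afn γ (k x) ∈ T
    rw [h1 x hx]
    exact T.mul_mem (T.inv_mem hx) (hγT γ hγ x hx)
  · have hc'' := Subgroup.mem_sup_right (S := P) hc'
    have h3 := hγT γ hγ _ (key n c hc'')
    rw [hγn, (homOn_afn _).map_mul (Subgroup.inv_mem _ (afn_mem _ (hPX hc'')))
      (hPX (afn_mem _ hc'')), (homOn_afn _).map_inv (afn_mem _ (hPX hc'')), afn_afn_inv,
      ← h2 c hc''] at h3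
    exact h3

theorem M_cravenSys_top (h : WNor p E F) (hP : E.IsCentric P) (hf : M E T f)
    (hf' : M (cravenSys h) P f) : M (cravenSys h) T f := by
  have := finite_of_le h.le
  have := finite_mulAut T
  obtain ⟨α, hα, e⟩ := hf.exists_aut' fun x hx => hf.mem hx
  obtain ⟨u, hu, v, hv, ⟨k, hk⟩, hc, euv⟩ := Tr.exists_p_part (p := p) α
  have hu' := Subgroup.zpowers_le.2 hα hu
  have hv' := Subgroup.zpowers_le.2 hα hv
  have huI : u ∈ Inn T := by
    obtain ⟨b, -, hb⟩ := (sat_sylow_top (isPGroup_of_le hS h.le) h.satE).exists_conj_mem_of_pow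
      hu' hk
    simpa [mul_assoc] using (congr_mem_Inn_iff b (α := u)).1 hb
  have huC := Inn_le_autGroup (F := cravenSys h) le_rfl huI
  have h1 : M (cravenSys h) P (afn v) :=
    (hf'.comp (M_afn le_rfl (Subgroup.inv_mem _ huC)) fun x hx => hf'.mem hx).congr fun x hx => by
      show afn u⁻¹ (f x) = _
      rw [← e x (hP.1 hx), euv, afn_mul, afn_inv_afn]
  refine ((M_cravenSys_top_of_coprime hS h hP hv' hc h1).comp (M_afn le_rfl huC)
    fun x hx => afn_mem v hx).congr fun x hx => ?_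
  show afn u (afn v x) = _
  rw [← e x hx, euv, afn_mul]

/-- **Craven's theorem.** -/
theorem isNormalIn_pPrimeResidual_of_weaklyNormal (hE : E.IsWeaklyNormalIn F p)
    {D : FusionSystem T} (hD : E.IsPPrimeResidual p D) : D.IsNormalIn F p := by
  have h := Asch.isWeaklyNormalIn_iff.1 hE
  have := finite_of_le h.le
  have hsub := pPrimeResidual_sub (isPGroup_of_le hS h.le) hE.1 hD (C := cravenSys h) le_rfl
    (fun P hP α hα k hk => mem_cravenSys_of_pow hS h hP hα hk)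
    fun P hP f hf hf' => M_cravenSys_top hS h hP hf hf'
  refine isNormalIn_of_ext ⟨hD.1, hE.2.1, isInvariantIn_pPrimeResidual hS hE.1 hE.2.2 hD⟩
    fun α hα => ?_
  obtain ⟨g, hg, e, ht⟩ := (M_cravenSys_iff.1 (M_of_le hsub (M_afn le_rfl hα))).2 isCentric_top
  exact ⟨g, hg, e, fun c hc => ht c (Subgroup.mem_sup_right hc)⟩

end Cfsg.Agent.Fus
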